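import Cfsg.Agent.TIV.B
import Cfsg.Agent.Comp2.GenFitting

/-! `Q` is special with centre `V`, and `⟨Q, Q^g⟩` induces `SL₂(|V|)` on `V V^g`. -/

namespace Cfsg.Agent.TIV

open Subgroup Cfsg.Agent.LocalEven Cfsg.Agent.Glaub Cfsg.Agent.Push
open scoped MatrixGroups

variable {G : Type*} [Group G] [Finite G]

namespace Pr

variable {V U : Subgroup G}

theorem conj_to (p : Pr V U) {v u : G} (hv : v ∈ V) (hv1 : v ≠ 1) (hu : u ∈ U) (hu1 : u ≠ 1) :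
    ∃ g ∈ PP V ⊔ PP U, g * v * g⁻¹ = u := by
  obtain ⟨y, hy, e⟩ := p.symm.move' hv hv1 hu
  obtain ⟨x, hx, e'⟩ := p.move' hu hu1 hv
  refine ⟨x⁻¹ * y, mul_mem (mem_sup_left (inv_mem hx)) (mem_sup_right hy), ?_⟩
  calc x⁻¹ * y * v * (x⁻¹ * y)⁻¹ = x⁻¹ * (y * v * y⁻¹) * x := by group
    _ = u := by rw [e, ← p.le_cent hu v hv, ← e']; group

theorem PP_eq (p : Pr V U) : PP V = QQ V := by
  refine le_antisymm (PP_le_QQ V) (le_inf le_rfl (le_cent_comm fun v hv => ?_))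
  by_cases hv1 : v = 1
  · rw [hv1]; exact one_mem _
  obtain ⟨u, hu, hu1⟩ := p.exists_ne_one
  obtain ⟨⟨z, hz⟩, hz1⟩ := (ne_bot_iff_exists_ne_one).1 (omegaOneCenter_ne_bot (pg_QQ V)
    fun e => hv1 (mem_bot.1 (e ▸ p.h.le_QQ hv)))
  have hz2 := mem_omegaOneCenter.1 hz
  have hz1' : z ≠ 1 := fun e => hz1 (Subtype.ext e)
  have hzV : z ∈ V := p.h.center_le ⟨⟨hz2.1, Push.cent_anti p.h.le_QQ hz2.2.1⟩,
    Push.cent_anti (PP_le_QQ V) hz2.2.1⟩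
  obtain ⟨g, -, e⟩ := p.conj_to hv hv1 hu hu1
  obtain ⟨g', -, e'⟩ := p.conj_to hzV hz1' hu hu1
  have e2 : g⁻¹ * g' * z * (g⁻¹ * g')⁻¹ = v := by
    calc g⁻¹ * g' * z * (g⁻¹ * g')⁻¹ = g⁻¹ * (g' * z * g'⁻¹) * g := by group
      _ = v := by rw [e', ← e]; group
  rw [← e2]
  exact conj_mem_of_mem_normalizer (le_normalizer_centralizer (norm_QQ V)
    (p.h.mem_norm hzV hz1' (e2 ▸ hv))) hz2.2.1

theorem comm_eq (p : Pr V U) : ⁅PP V, PP V⁆ = V := by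
  refine le_antisymm p.h.comm_le fun v hv => ?_
  obtain ⟨U', p', hn⟩ := p.exists_nc
  obtain ⟨x, hx, hx'⟩ := SetLike.not_le_iff_exists.1 hn
  obtain ⟨u, hu, e⟩ := p.surj (p'.le hx) hx' v hv
  exact e ▸ comm_mem (p'.le hx) (p.le hu)

theorem center_eq (p : Pr V U) : PP V ⊓ 𝐂⟮PP V⟯ = V :=
  le_antisymm p.h.center_le (le_inf p.h.le_PP (le_cent_comm (PP_le_cent V)))

theorem frattini_eq (p : Pr V U) : (frattini (PP V)).map (PP V).subtype = V :=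
  le_antisymm ((PGrp.map_frattini_le_iff (pg_PP V)).2
    ⟨p.h.comm_le, fun _ hx => by rw [sq]; exact p.h.sq_mem hx⟩)
    (p.comm_eq.ge.trans (PGrp.commutator_le_map_frattini (pg_PP V)))

theorem norm_H (p : Pr V U) : PP V ⊔ PP U ≤ 𝐍⟮V ⊔ U⟯ :=
  _root_.sup_le p.norm_sup (by rw [sup_comm]; exact p.symm.norm_sup)

theorem uniq (p : Pr V U) {w : G} (hw : w ∈ V ⊔ U) (h1 : w ≠ 1) :
    ∃! B : Subgroup G, Cj V B ∧ B ≤ V ⊔ U ∧ w ∈ B := by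
  have : ∃ B : Subgroup G, Cj V B ∧ B ≤ V ⊔ U ∧ w ∈ B := by
    by_cases hV : w ∈ V
    · exact ⟨V, Cj.refl V, le_sup_left, hV⟩
    · obtain ⟨x, hx, e⟩ := p.part hw hV
      exact ⟨_, p.c.conj x, p.cj_le hx, e⟩
  obtain ⟨B, hB⟩ := this
  exact ⟨B, hB, fun B' hB' => p.h.eq_of_mem hB'.1 hB.1 h1 hB'.2.2 hB.2.2⟩

theorem inf_cent (p : Pr V U) : 𝐂⟮PP V⟯ ⊓ (V ⊔ U) = V :=
  le_antisymm (fun _ hw => p.h.center_le ⟨p.sup_le hw.2, hw.1⟩)
    (le_inf (le_cent_comm (PP_le_cent V)) le_sup_left)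

theorem relIndex_eq (p : Pr V U) : 𝐂⟮PP V⟯.relIndex (V ⊔ U) = Nat.card V := by
  have h1 := card_inf_mul_relIndex 𝐂⟮PP V⟯ (V ⊔ U)
  rw [p.inf_cent, Core.card_sup_of_disjoint (p.le_cent.trans (cent_le_norm V))
    (disjoint_iff.2 ((eq_bot_iff_forall _).2 fun x hx => p.eq_one hx.2 hx.1)), p.c.card] at h1
  exact Nat.eq_of_mul_eq_mul_left Nat.card_pos h1

theorem fix_bot (p : Pr V U) {w : G} (hw : w ∈ V ⊔ U) (hc : w ∈ 𝐂⟮PP V ⊔ PP U⟯) : w = 1 :=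
  p.eq_one (p.hU.center_le ⟨p.symm.sup_le (by rwa [sup_comm]), Push.cent_anti le_sup_right hc⟩)
    (p.h.center_le ⟨p.sup_le hw, Push.cent_anti le_sup_left hc⟩)

theorem sl2 (p : Pr V U) : ∃ (F : Type) (_ : Field F) (_ : Fintype F), Fintype.card F = Nat.card V ∧
    ∃ σ : (PP V ⊔ PP U : Subgroup G) →* SL(2, F), Function.Surjective σ ∧
      σ.ker = 𝐂⟮V ⊔ U⟯.subgroupOf (PP V ⊔ PP U) := by
  have hcW : ∀ a ∈ PP V, a ∈ 𝐂⟮U⟯ → a ∈ 𝐂⟮V ⊔ U⟯ := fun a ha hc =>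
    le_cent_comm (H := V ⊔ U) (K := PP V ⊓ 𝐂⟮U⟯)
      (_root_.sup_le (le_cent_comm (inf_le_left.trans (PP_le_cent V))) (le_cent_comm inf_le_right))
      ⟨ha, hc⟩
  obtain ⟨u, hu, hu1⟩ := p.exists_ne_one
  obtain ⟨v, hv, hv1⟩ := p.symm.exists_ne_one
  obtain ⟨g, hg, eg⟩ := p.conj_to hv hv1 hu hu1
  have eg' : cj g V = U := p.h.eq_of_mem ⟨g, rfl⟩ p.c hu1 (eg ▸ conj_mem_cj hv) hu
  have hM : ¬ PP V ⊔ PP U ≤ 𝐍⟮V⟯ := fun h => p.ne (eg' ▸ cj_eq_of_mem_normalizer (h hg))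
  obtain ⟨k1, -, -, ⟨n, hn, k2⟩, k3⟩ := natural_of_pair (p := 2) (L := PP V ⊔ PP U) (A := PP V)
    (M := 𝐍⟮V⟯) p.ea p.norm_H le_sup_left (PP_le V)
    (comm_bot_of_le_cent (((commutator_mono p.sup_le le_rfl).trans p.h.comm_le).trans
      (le_cent_comm (PP_le_cent V))))
    (fun x hx hxV => by
      have t1 : cj x V ≤ V ⊔ U := cj_le_of_mem_normalizer (p.norm_H hx) le_sup_left
      obtain ⟨y, hy, e⟩ := p.of_meet ⟨x, rfl⟩ (fun e => hxV (cj_eq_self_iff.1 e))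
        (w := x * v * x⁻¹) (fun e => hv1 (by simpa using e)) (t1 (conj_mem_cj hv)) (conj_mem_cj hv)
      refine le_sup_of_le_left (_root_.sup_le le_sup_left ?_)
      rw [cj_PP, e, ← cj_PP]
      have := cj_le_of_mem (K := PP V ⊔ cj y (PP U)) (mem_sup_left (inv_mem hy)) le_sup_right
      rwa [cj_inv_cj] at this)
    (_root_.sup_le (le_sup_of_le_left (le_inf le_sup_left (le_cent_comm (PP_le_cent V))))
      (le_sup_of_le_right (by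
        obtain ⟨V', p', hn⟩ := p.symm.exists_nc
        obtain ⟨x, hx, hx'⟩ := SetLike.not_le_iff_exists.1 hn
        intro w hw
        obtain ⟨z, hz, e⟩ := p.symm.surj (p'.le hx) hx' w hw
        exact e ▸ comm_mem' (mem_sup_left hz) (mem_sup_right (p'.le hx)))))
    (fun a ha h => hcW a ha (p.cent_of_norm ha (by
      rw [← eg', ← cj_normalizer]; exact mem_cj.2 (h g hg))))
    (fun a ha h w hw => by
      have := p.fix_bot (mul_mem (conj_mem_of_mem_normalizer (p.norm_sup ha) hw) (inv_mem hw))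
        (h w hw)
      calc w * a = (a * w * a⁻¹ * w⁻¹) * (w * a) := by rw [this, one_mul]
        _ = a * w := by group)
    (by
      obtain ⟨U', p', hn⟩ := p.exists_nc
      have t1 : 𝐂⟮V ⊔ U⟯ ⊓ U' = ⊥ := (eq_bot_iff_forall _).2 fun x hx => by
        by_contra hx1
        exact p'.not_cent p (fun h => hn (le_cent_comm h)) hx.2 hx1
          (Push.cent_anti le_sup_right hx.1)
      rw [p.relIndex_eq, ← p'.c.card, ← relIndex_bot_left, ← t1, inf_relIndex_right]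
      exact relIndex_le_of_le_right p'.le (FiniteIndex.index_ne_zero))
    hM (fun h => hM (h.trans ((Push.cent_anti le_sup_left).trans (cent_le_norm V))))
  obtain ⟨F, _, _, hF⟩ := exists_field_card (p := 2) hn
  obtain ⟨σ, ψ, s1, s2, -⟩ := k3 F (hF.trans k2.symm)
  refine ⟨F, inferInstance, inferInstance, by rw [hF, ← k2, k1, p.relIndex_eq], σ, s2, ?_⟩
  have e0 : (V ⊔ U) ⊓ 𝐂⟮PP V ⊔ PP U⟯ = ⊥ :=
    (eq_bot_iff_forall _).2 fun w hw => p.fix_bot hw.1 hw.2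
  rw [e0] at s1
  ext e
  rw [MonoidHom.mem_ker, s1.eq_one_iff_bot, mem_subgroupOf]

end Pr

theorem hyp_of (V : Subgroup G) (hV : IsElementaryAbelian 2 V)
    (h1 : (generalizedFittingSubgroup 𝐍⟮V⟯).map 𝐍⟮V⟯.subtype = (pCore 2 𝐍⟮V⟯).map 𝐍⟮V⟯.subtype)
    (h2 : ∀ A : Subgroup G, V ≤ A → A ≤ 𝐍⟮V⟯ → IsMulCommutative A →
      (∀ m ∈ 𝐍⟮V⟯, ∀ a ∈ A, m * a * m⁻¹ ∈ A) → A = V)
    (hti : ∀ x : G, cj x V = V ∨ cj x V ⊓ V = ⊥) : Hyp V where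
  ea := hV
  ch := by
    rw [LocalEven.charP_iff, ← map_injective (Subgroup.subtype_injective _) h1]
    exact Comp2.centralizer_genFitting_le
  mx := fun A a b c d => h2 A a b c fun m hm x hx => conj_mem_of_mem_normalizer (d hm) hx
  ti := hti

theorem pr_of {V : Subgroup G} (h : Hyp V) {g : G} (hg : cj g V ≠ V) (hQ : cj g V ≤ QQ V) :
    Pr V (cj g V) :=
  ⟨h, ⟨g, rfl⟩, hg, le_inf hQ (h.le_cent_of_le_norm ⟨g, rfl⟩ hg (hQ.trans (QQ_le V)))⟩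

end Cfsg.Agent.TIV
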