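import Cfsg.Agent.Push.Pair
import Cfsg.Agent.Core.Coprime2
import Cfsg.Agent.PGrp.Frattini

/-! An elementary abelian TI-subgroup which is a maximal abelian normal subgroup of its normalizer:
the structure of `P = C_Q(V)`. -/

namespace Cfsg.Agent.TIV

open Subgroup Cfsg.Agent.LocalEven Cfsg.Agent.Glaub Cfsg.Agent.Push

variable {G : Type*} [Group G]

/-- the hypothesis -/
structure Hyp (V : Subgroup G) : Prop where
  ea : IsElementaryAbelian 2 V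
  ch : LocalEven.CharP 2 𝐍⟮V⟯
  mx : ∀ A : Subgroup G, V ≤ A → A ≤ 𝐍⟮V⟯ → IsMulCommutative A → 𝐍⟮V⟯ ≤ 𝐍⟮A⟯ → A = V
  ti : ∀ x : G, cj x V = V ∨ cj x V ⊓ V = ⊥

/-- `O₂(N(V))` -/
def QQ (V : Subgroup G) : Subgroup G := pCoreOf 2 𝐍⟮V⟯

/-- `C_Q(V)` -/
def PP (V : Subgroup G) : Subgroup G := QQ V ⊓ 𝐂⟮V⟯

/-- `U` is a conjugate of `V` -/
def Cj (V U : Subgroup G) : Prop := ∃ x : G, U = cj x V

theorem cj_QQ (g : G) (V : Subgroup G) : cj g (QQ V) = QQ (cj g V) := by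
  unfold QQ; rw [cj_pCoreOf, cj_normalizer]

theorem cj_PP (g : G) (V : Subgroup G) : cj g (PP V) = PP (cj g V) := by
  unfold PP; rw [cj_inf, cj_QQ, cj_centralizer]

theorem Cj.refl (V : Subgroup G) : Cj V V := ⟨1, (cj_one V).symm⟩

theorem Cj.symm {V U : Subgroup G} (h : Cj V U) : Cj U V := by
  obtain ⟨x, rfl⟩ := h
  exact ⟨x⁻¹, (cj_inv_cj x V).symm⟩

theorem Cj.trans {V U W : Subgroup G} (h : Cj V U) (h' : Cj U W) : Cj V W := by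
  obtain ⟨x, rfl⟩ := h
  obtain ⟨y, rfl⟩ := h'
  exact ⟨y * x, cj_cj y x V⟩

theorem Cj.conj {V U : Subgroup G} (h : Cj V U) (g : G) : Cj V (cj g U) := h.trans ⟨g, rfl⟩

theorem Cj.card {V U : Subgroup G} (h : Cj V U) : Nat.card U = Nat.card V := by
  obtain ⟨x, rfl⟩ := h
  exact card_cj x V

theorem Hyp.conj {V : Subgroup G} (h : Hyp V) (g : G) : Hyp (cj g V) where
  ea := elemAb_cj h.ea g
  ch := by rw [← cj_normalizer]; exact h.ch.cj g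
  mx := fun A h1 h2 h3 h4 => by
    rw [← cj_cj_inv g A, cj_inj]
    refine h.mx _ (cj_le_iff.1 h1) ?_ (isMulCommutative_cj _ h3) ?_
    · rw [← cj_normalizer] at h2; exact le_cj_iff.1 h2
    · rw [← cj_normalizer] at h4 ⊢; exact cj_le_iff.1 h4
  ti := fun x => by
    rcases h.ti (g⁻¹ * x * g) with e | e
    · left
      rw [cj_cj, show x * g = g * (g⁻¹ * x * g) by group, cj_mul, e]
    · right
      rw [cj_cj, show x * g = g * (g⁻¹ * x * g) by group, cj_mul, ← cj_inf, e, cj_bot]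

theorem Hyp.of_cj {V U : Subgroup G} (h : Hyp V) (hU : Cj V U) : Hyp U := by
  obtain ⟨x, rfl⟩ := hU
  exact h.conj x

theorem Hyp.eq_of_mem {V U U' : Subgroup G} (h : Hyp V) (hU : Cj V U) (hU' : Cj V U') {x : G}
    (hx : x ≠ 1) (h1 : x ∈ U) (h2 : x ∈ U') : U = U' := by
  obtain ⟨y, rfl⟩ := hU.symm.trans hU'
  rcases (h.of_cj hU).ti y with e | e
  · exact e.symm
  · exact absurd (mem_bot.1 (e ▸ (⟨h2, h1⟩ : x ∈ cj y U ⊓ U))) hx

theorem Hyp.eq_one {V U U' : Subgroup G} (h : Hyp V) (hU : Cj V U) (hU' : Cj V U') (hne : U ≠ U')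
    {x : G} (h1 : x ∈ U) (h2 : x ∈ U') : x = 1 := by
  by_contra hx
  exact hne (h.eq_of_mem hU hU' hx h1 h2)

theorem Hyp.mem_norm {V : Subgroup G} (h : Hyp V) {v y : G} (hv : v ∈ V) (h1 : v ≠ 1)
    (hy : y * v * y⁻¹ ∈ V) : y ∈ 𝐍⟮V⟯ := by
  rw [← cj_eq_self_iff]
  refine h.eq_of_mem ⟨y, rfl⟩ (Cj.refl V) (x := y * v * y⁻¹) (fun e => h1 ?_) (conj_mem_cj hv) hy
  have : v = y⁻¹ * (y * v * y⁻¹) * y := by group
  rw [this, e]; group

theorem Hyp.mul_self {V : Subgroup G} (h : Hyp V) {v : G} (hv : v ∈ V) : v * v = 1 := by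
  rw [← sq]; exact h.ea.2 v hv

theorem Hyp.le_cent {V : Subgroup G} (h : Hyp V) : V ≤ 𝐂⟮V⟯ := elemAb_le_centralizer h.ea

theorem cent_le_norm (V : Subgroup G) : 𝐂⟮V⟯ ≤ 𝐍⟮V⟯ := centralizer_le_normalizer _

theorem QQ_le (V : Subgroup G) : QQ V ≤ 𝐍⟮V⟯ := pCoreOf_le _

theorem PP_le (V : Subgroup G) : PP V ≤ 𝐍⟮V⟯ := inf_le_left.trans (QQ_le V)

theorem PP_le_cent (V : Subgroup G) : PP V ≤ 𝐂⟮V⟯ := inf_le_right

theorem PP_le_QQ (V : Subgroup G) : PP V ≤ QQ V := inf_le_left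

theorem norm_QQ (V : Subgroup G) : 𝐍⟮V⟯ ≤ 𝐍⟮QQ V⟯ := le_normalizer_pCoreOf _

theorem norm_PP (V : Subgroup G) : 𝐍⟮V⟯ ≤ 𝐍⟮PP V⟯ :=
  le_normalizer_inf (norm_QQ V) (le_normalizer_centralizer le_rfl)

theorem pg_QQ (V : Subgroup G) : IsPGroup 2 (QQ V) := isPGroup_pCoreOf _

theorem pg_PP (V : Subgroup G) : IsPGroup 2 (PP V) := (pg_QQ V).to_le inf_le_left

theorem Hyp.le_QQ {V : Subgroup G} (h : Hyp V) : V ≤ QQ V :=
  le_pCoreOf le_normalizer le_rfl (isPGroup_of_elemAb h.ea)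

theorem Hyp.le_PP {V : Subgroup G} (h : Hyp V) : V ≤ PP V := le_inf h.le_QQ h.le_cent

theorem comm_of_le_cent {A : Subgroup G} (h : A ≤ 𝐂⟮A⟯) : IsMulCommutative A :=
  isMulCommutative_of_le (isMulCommutative_center A) (le_inf le_rfl h)

theorem Hyp.le_of_ab {V A : Subgroup G} (h : Hyp V) (h1 : A ≤ PP V) (h2 : A ≤ 𝐂⟮A⟯)
    (h3 : 𝐍⟮V⟯ ≤ 𝐍⟮A⟯) : A ≤ V := by
  have hAV : A ≤ 𝐂⟮V⟯ := h1.trans (PP_le_cent V)
  have key : V ⊔ A ≤ 𝐂⟮V ⊔ A⟯ := by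
    have t : ∀ B : Subgroup G, B ≤ 𝐂⟮V⟯ → B ≤ 𝐂⟮A⟯ → B ≤ 𝐂⟮V ⊔ A⟯ := fun B a b =>
      le_cent_comm (sup_le (le_cent_comm a) (le_cent_comm b))
    exact sup_le (t _ h.le_cent (le_cent_comm hAV)) (t _ hAV h2)
  rw [← h.mx (V ⊔ A) le_sup_left (sup_le le_normalizer (h1.trans (PP_le V))) (comm_of_le_cent key)
    (le_normalizer_sup le_rfl h3)]
  exact le_sup_right

theorem Hyp.center_le {V : Subgroup G} (h : Hyp V) : PP V ⊓ 𝐂⟮PP V⟯ ≤ V :=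
  h.le_of_ab inf_le_left (inf_le_right.trans (Push.cent_anti inf_le_left))
    (le_normalizer_inf (norm_PP V) (le_normalizer_centralizer (norm_PP V)))

variable [Finite G]

theorem Hyp.comm_le {V : Subgroup G} (h : Hyp V) : ⁅PP V, PP V⁆ ≤ V := by
  by_contra hc
  have hD : ⁅PP V, PP V⁆ ≤ PP V := comm_le_left le_normalizer
  obtain ⟨K, ⟨k1, k2, k3⟩, hmin⟩ := (Set.toFinite {K : Subgroup G | K ≤ ⁅PP V, PP V⁆ ∧
    𝐍⟮V⟯ ≤ 𝐍⟮K⟯ ∧ ¬ K ≤ V}).exists_minimal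
    ⟨_, le_rfl, le_normalizer_commutator (norm_PP V) (norm_PP V), hc⟩
  have hK : K ≠ ⊥ := by rintro rfl; exact k3 bot_le
  have hlt := Core.commutator_lt_of_isPGroup ((pg_PP V).to_le (k1.trans hD)) (pg_PP V)
    ((PP_le V).trans k2) hK
  have h1 : ⁅K, PP V⁆ ≤ V := by
    by_contra h1
    exact hlt.not_ge (hmin ⟨hlt.le.trans k1, le_normalizer_commutator k2 (norm_PP V), h1⟩ hlt.le)
  have h2 : ⁅⁅K, PP V⁆, PP V⁆ = ⊥ := comm_bot_of_le_cent (h1.trans (le_cent_comm (PP_le_cent V)))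
  have h3 : ⁅⁅PP V, PP V⁆, K⁆ = ⊥ :=
    commutator_commutator_eq_bot_of_rotate (by rw [Subgroup.commutator_comm (PP V) K]; exact h2) h2
  exact k3 (h.le_of_ab (k1.trans hD) (k1.trans (le_cent_of_comm_bot h3)) k2)

theorem Hyp.cm {V : Subgroup G} (h : Hyp V) {x y : G} (hx : x ∈ PP V) (hy : y ∈ PP V) :
    x * y * x⁻¹ * y⁻¹ ∈ V := h.comm_le (comm_mem hx hy)

/-- the elements centralizing `V` and `X / V` -/
def stab (V X : Subgroup G) : Subgroup G where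
  carrier := {b | b ∈ 𝐂⟮V⟯ ∧ ∀ x ∈ X, b * x * b⁻¹ * x⁻¹ ∈ V}
  one_mem' := ⟨one_mem _, fun x _ => by simp⟩
  mul_mem' := by
    rintro a b ⟨ha, ha'⟩ ⟨hb, hb'⟩
    refine ⟨mul_mem ha hb, fun x hx => ?_⟩
    have : a * b * x * (a * b)⁻¹ * x⁻¹ = (a * (b * x * b⁻¹ * x⁻¹) * a⁻¹) * (a * x * a⁻¹ * x⁻¹) := by
      group
    rw [this, conj_eq_of_cent' ha (hb' x hx)]
    exact mul_mem (hb' x hx) (ha' x hx)
  inv_mem' := by
    rintro b ⟨hb, hb'⟩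
    refine ⟨inv_mem hb, fun x hx => ?_⟩
    have : b⁻¹ * x * b⁻¹⁻¹ * x⁻¹ = b⁻¹ * (b * x * b⁻¹ * x⁻¹)⁻¹ * b⁻¹⁻¹ := by group
    rw [this, conj_eq_of_cent' (inv_mem hb) (inv_mem (hb' x hx))]
    exact inv_mem (hb' x hx)

omit [Finite G] in
theorem mem_stab {V X : Subgroup G} {b : G} :
    b ∈ stab V X ↔ b ∈ 𝐂⟮V⟯ ∧ ∀ x ∈ X, b * x * b⁻¹ * x⁻¹ ∈ V := Iff.rfl

omit [Finite G] in
theorem Hyp.sq_stab {V X : Subgroup G} (h : Hyp V) {b : G} (hb : b ∈ stab V X) :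
    b * b ∈ 𝐂⟮X⟯ := fun x hx => by
  have h1 := hb.2 x hx
  have h2 := conj_eq_of_cent' hb.1 h1
  have h3 := h.mul_self h1
  have : b * b * x * (b * b)⁻¹ * x⁻¹ =
      (b * (b * x * b⁻¹ * x⁻¹) * b⁻¹) * (b * x * b⁻¹ * x⁻¹) := by group
  rw [h2, h3] at this
  calc x * (b * b) = (b * b * x * (b * b)⁻¹ * x⁻¹) * (x * (b * b)) := by rw [this, one_mul]
    _ = b * b * x := by group

omit [Finite G] in
theorem norm_stab {V X : Subgroup G} (hX : 𝐍⟮V⟯ ≤ 𝐍⟮X⟯) : 𝐍⟮V⟯ ≤ 𝐍⟮stab V X⟯ :=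
  le_normalizer_of_cj_le fun m hm => cj_le_iff'.2 fun b hb =>
    ⟨conj_mem_of_mem_normalizer (le_normalizer_centralizer le_rfl hm) hb.1, fun x hx => by
      have := conj_mem_of_mem_normalizer hm (hb.2 _ (inv_conj_mem_of_mem_normalizer (hX hm) hx))
      convert this using 1
      group⟩

omit [Finite G] in
theorem Hyp.stab_le {V : Subgroup G} (h : Hyp V) : stab V (PP V) ≤ PP V := by
  have hM : stab V (PP V) ≤ 𝐍⟮V⟯ := fun b hb => cent_le_norm V hb.1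
  refine le_inf (le_pCoreOf hM (norm_stab (norm_PP V)) (isPGroup_iff_mem.2 fun b hb => ?_))
    fun b hb => hb.1
  have h1 := h.sq_stab hb
  have h2 : b * b ∈ stab V (QQ V) := ⟨mul_mem hb.1 hb.1, fun x hx => by
    have t1 : b * b * x * (b * b)⁻¹ * x⁻¹ ∈ QQ V :=
      mul_mem (conj_mem_of_mem_normalizer (norm_QQ V (hM (mul_mem hb hb))) hx) (inv_mem hx)
    have t2 : b * b * x * (b * b)⁻¹ * x⁻¹ ∈ 𝐂⟮PP V⟯ := by
      have := mul_mem h1 (conj_mem_of_mem_normalizer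
        (le_normalizer_centralizer (norm_PP V) (QQ_le V hx)) (inv_mem h1))
      convert this using 1
      group
    exact h.center_le ⟨⟨t1, Push.cent_anti h.le_PP t2⟩, t2⟩⟩
  have h3 : b * b * (b * b) ∈ QQ V :=
    h.ch ⟨hM (mul_mem (mul_mem hb hb) (mul_mem hb hb)), h.sq_stab h2⟩
  obtain ⟨k, hk⟩ := isPGroup_iff_mem.1 (pg_QQ V) _ h3
  refine ⟨k + 2, ?_⟩
  rw [← hk, show b * b * (b * b) = b ^ 4 by rw [show (4 : ℕ) = 2 + 2 by rfl, pow_add, sq], ← pow_mul]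
  congr 1; ring

theorem Hyp.sq_mem {V : Subgroup G} (h : Hyp V) {x : G} (hx : x ∈ PP V) : x * x ∈ V :=
  h.center_le ⟨mul_mem hx hx, h.sq_stab ⟨hx.2, fun _ hy => h.cm hx hy⟩⟩

/-- an injective map between conjugates is onto -/
theorem surj_of_inj {V U : Subgroup G} (hU : Cj V U) (f : G → G) (hf : ∀ u ∈ U, f u ∈ V)
    (hi : ∀ u ∈ U, ∀ u' ∈ U, f u = f u' → u = u') : ∀ v ∈ V, ∃ u ∈ U, f u = v := by
  let F : U → V := fun u => ⟨f u, hf u u.2⟩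
  have h1 : Function.Injective F := fun a b e =>
    Subtype.ext (hi a a.2 b b.2 (congrArg Subtype.val e))
  have h2 := (Nat.bijective_iff_injective_and_card F).2 ⟨h1, hU.card⟩
  intro v hv
  obtain ⟨u, hu⟩ := h2.2 ⟨v, hv⟩
  exact ⟨u, u.2, congrArg Subtype.val hu⟩

omit [Finite G] in
/-- an element normalizing `U` with commutators in another conjugate centralizes `U` -/
theorem Hyp.cent_of_norm {V U : Subgroup G} (h : Hyp V) (hU : Cj V U) (hne : U ≠ V) {x : G}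
    (hx : x ∈ 𝐍⟮U⟯) (hc : ∀ u ∈ U, x * u * x⁻¹ * u⁻¹ ∈ V) : x ∈ 𝐂⟮U⟯ := fun u hu => by
  have := h.eq_one hU (Cj.refl V) hne
    (mul_mem (conj_mem_of_mem_normalizer hx hu) (inv_mem hu)) (hc u hu)
  calc u * x = (x * u * x⁻¹ * u⁻¹) * (u * x) := by rw [this, one_mul]
    _ = x * u := by group

theorem Hyp.le_cent_of_le_norm {V U : Subgroup G} (h : Hyp V) (hU : Cj V U) (hne : U ≠ V)
    (hle : U ≤ 𝐍⟮V⟯) : U ≤ 𝐂⟮V⟯ := by
  refine le_cent_comm fun v hv => ?_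
  by_contra hc
  have hv1 : v ≠ 1 := by rintro rfl; exact hc (one_mem _)
  obtain ⟨u, -, e⟩ := surj_of_inj hU (fun u => u * v * u⁻¹)
    (fun u hu => conj_mem_of_mem_normalizer (hle hu) hv) (fun u hu u' hu' e => by
      by_contra hne'
      refine hc (h.cent_of_norm hU hne ((h.of_cj hU).mem_norm (v := u'⁻¹ * u)
        (mul_mem (inv_mem hu') hu) (fun e' => hne' (inv_mul_eq_one.1 e').symm) ?_) fun w hw => ?_)
      · have : v * (u'⁻¹ * u) * v⁻¹ = u'⁻¹ * u := by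
          calc v * (u'⁻¹ * u) * v⁻¹ = u'⁻¹ * (u' * v * u'⁻¹) * u * v⁻¹ := by group
            _ = u'⁻¹ * (u * v * u⁻¹) * u * v⁻¹ := by rw [e]
            _ = u'⁻¹ * u := by group
        rw [this]; exact mul_mem (inv_mem hu') hu
      · have := mul_mem hv (conj_mem_of_mem_normalizer (hle hw) (inv_mem hv))
        convert this using 1
        group) 1 (one_mem _)
  apply hv1
  calc v = u⁻¹ * (u * v * u⁻¹) * u := by group
    _ = 1 := by rw [e]; group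

end Cfsg.Agent.TIV
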