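import Cfsg.Agent.TIV.A

/-! A conjugate `U ≠ V` inside `C_Q(V)`: the group `VU` is partitioned by conjugates. -/

namespace Cfsg.Agent.TIV

open Subgroup Cfsg.Agent.LocalEven Cfsg.Agent.Glaub Cfsg.Agent.Push

variable {G : Type*} [Group G]

/-- `U ≠ V` is a conjugate of `V` in `C_Q(V)` -/
structure Pr (V U : Subgroup G) : Prop where
  h : Hyp V
  c : Cj V U
  ne : U ≠ V
  le : U ≤ PP V

namespace Pr

variable {V U U' : Subgroup G}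

theorem hU (p : Pr V U) : Hyp U := p.h.of_cj p.c

theorem eq_one (p : Pr V U) {x : G} (h1 : x ∈ U) (h2 : x ∈ V) : x = 1 :=
  p.h.eq_one p.c (Cj.refl V) p.ne h1 h2

theorem conj (p : Pr V U) {m : G} (hm : m ∈ 𝐍⟮V⟯) : Pr V (cj m U) where
  h := p.h
  c := p.c.conj m
  ne := fun e => p.ne (by rw [cj_eq_iff.1 e, cj_eq_of_mem_normalizer (inv_mem hm)])
  le := cj_le_of_mem_normalizer (norm_PP V hm) p.le

theorem le_cent (p : Pr V U) : U ≤ 𝐂⟮V⟯ := p.le.trans (PP_le_cent V)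

theorem le_cent' (p : Pr V U) : V ≤ 𝐂⟮U⟯ := le_cent_comm p.le_cent

theorem mem_sup (p : Pr V U) {w : G} : w ∈ V ⊔ U ↔ ∃ v ∈ V, ∃ u ∈ U, v * u = w :=
  mem_sup_iff_of_le_normalizer (p.le_cent'.trans (cent_le_norm U))

theorem sup_le (p : Pr V U) : V ⊔ U ≤ PP V := _root_.sup_le p.h.le_PP p.le

theorem ea (p : Pr V U) : IsElementaryAbelian 2 (V ⊔ U : Subgroup G) :=
  elemAb_sup p.h.ea p.hU.ea p.le_cent'

variable [Finite G]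

theorem exists_ne_one (p : Pr V U) : ∃ u ∈ U, u ≠ 1 := by
  by_contra hc
  push Not at hc
  have h1 : U = ⊥ := (eq_bot_iff_forall U).2 hc
  have h2 : V = ⊥ := by
    have := p.c.card
    rw [h1, card_bot] at this
    exact card_eq_one.1 this.symm
  exact p.ne (h1.trans h2.symm)

theorem cent_of_norm (p : Pr V U) {x : G} (hx : x ∈ PP V) (hn : x ∈ 𝐍⟮U⟯) : x ∈ 𝐂⟮U⟯ :=
  p.h.cent_of_norm p.c p.ne hn fun _ hu => p.h.cm hx (p.le hu)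

theorem cent_of_comm (p : Pr V U) {x u : G} (hx : x ∈ PP V) (hu : u ∈ U) (h1 : u ≠ 1)
    (hc : x * u * x⁻¹ = u) : x ∈ 𝐂⟮U⟯ :=
  p.cent_of_norm hx (p.hU.mem_norm hu h1 (hc.symm ▸ hu))

theorem surj (p : Pr V U) {x : G} (hx : x ∈ PP V) (hc : x ∉ 𝐂⟮U⟯) :
    ∀ v ∈ V, ∃ u ∈ U, x * u * x⁻¹ * u⁻¹ = v :=
  surj_of_inj p.c (fun u => x * u * x⁻¹ * u⁻¹) (fun _ hu => p.h.cm hx (p.le hu))
    fun u hu u' hu' e => by
      by_contra hne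
      refine hc (p.cent_of_comm hx (mul_mem (inv_mem hu') hu)
        (fun e' => hne (inv_mul_eq_one.1 e').symm) ?_)
      calc x * (u'⁻¹ * u) * x⁻¹
          = u'⁻¹ * (x * u' * x⁻¹ * u'⁻¹)⁻¹ * (x * u * x⁻¹ * u⁻¹) * u := by group
        _ = u'⁻¹ * u := by rw [show x * u * x⁻¹ * u⁻¹ = x * u' * x⁻¹ * u'⁻¹ from e]; group

theorem exists_nc (p : Pr V U) : ∃ U', Pr V U' ∧ ¬ U' ≤ 𝐂⟮U⟯ := by
  by_contra hc
  push Not at hc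
  have h1 : IsElementaryAbelian 2 (⨆ m : 𝐍⟮V⟯, cj (m : G) U : Subgroup G) :=
    elemAb_iSup (fun m => (p.conj m.2).hU.ea.2) fun m m' => by
      rw [← cj_centralizer, le_cj_iff, cj_cj]
      exact hc _ (p.conj (mul_mem (inv_mem m'.2) m.2))
  have h2 : (⨆ m : 𝐍⟮V⟯, cj (m : G) U : Subgroup G) ≤ V :=
    p.h.le_of_ab (iSup_le fun m => (p.conj m.2).le) (elemAb_le_centralizer h1)
      (le_normalizer_of_cj_le fun g hg => by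
        rw [cj_iSup]
        refine iSup_le fun m => ?_
        rw [cj_cj]
        exact le_iSup (fun m : 𝐍⟮V⟯ => cj (m : G) U) ⟨g * m, mul_mem hg m.2⟩)
  obtain ⟨u, hu, h1⟩ := p.exists_ne_one
  refine h1 (p.eq_one hu (h2 (le_iSup (fun m : 𝐍⟮V⟯ => cj (m : G) U) 1 ?_)))
  rw [OneMemClass.coe_one, cj_one]; exact hu

theorem not_cent (p : Pr V U) (p' : Pr V U') (hn : ¬ U' ≤ 𝐂⟮U⟯) {u : G} (hu : u ∈ U)
    (h1 : u ≠ 1) : u ∉ 𝐂⟮U'⟯ := fun hc =>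
  hn fun x hx => p.cent_of_comm (p'.le hx) hu h1 (conj_eq_of_cent hx hc)

theorem move (p : Pr V U) (p' : Pr V U') (hn : ¬ U' ≤ 𝐂⟮U⟯) {u v : G} (hu : u ∈ U)
    (h1 : u ≠ 1) (hv : v ∈ V) : ∃ x ∈ U', x * u * x⁻¹ = v * u := by
  obtain ⟨x, hx, e⟩ := p'.surj (p.le hu) (p.not_cent p' hn hu h1) v⁻¹ (inv_mem hv)
  refine ⟨x, hx, ?_⟩
  calc x * u * x⁻¹ = (u * x * u⁻¹ * x⁻¹)⁻¹ * u := by group
    _ = v * u := by rw [e, inv_inv]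

theorem move' (p : Pr V U) {u v : G} (hu : u ∈ U) (h1 : u ≠ 1) (hv : v ∈ V) :
    ∃ x ∈ PP V, x * u * x⁻¹ = v * u := by
  obtain ⟨U', p', hn⟩ := p.exists_nc
  obtain ⟨x, hx, e⟩ := p.move p' hn hu h1 hv
  exact ⟨x, p'.le hx, e⟩

theorem decomp (p : Pr V U) (p' : Pr V U') (hn : ¬ U' ≤ 𝐂⟮U⟯) {x : G} (hx : x ∈ PP V) :
    ∃ y ∈ U', y⁻¹ * x ∈ 𝐂⟮U⟯ := by
  obtain ⟨u, hu, h1⟩ := p.exists_ne_one
  obtain ⟨y, hy, e⟩ := p.move p' hn hu h1 (p.h.cm hx (p.le hu))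
  refine ⟨y, hy, p.cent_of_comm (mul_mem (inv_mem (p'.le hy)) hx) hu h1 ?_⟩
  calc y⁻¹ * x * u * (y⁻¹ * x)⁻¹ = y⁻¹ * (x * u * x⁻¹ * u⁻¹ * u) * y := by group
    _ = u := by rw [← e]; group

theorem cj_le (p : Pr V U) {x : G} (hx : x ∈ PP V) : cj x U ≤ V ⊔ U :=
  cj_le_iff'.2 fun u hu => p.mem_sup.2 ⟨_, p.h.cm hx (p.le hu), u, hu, by group⟩

theorem norm_sup (p : Pr V U) : PP V ≤ 𝐍⟮V ⊔ U⟯ :=
  le_normalizer_of_cj_le fun x hx => by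
    rw [cj_sup, cj_eq_of_mem_normalizer (PP_le V hx)]
    exact _root_.sup_le le_sup_left (p.cj_le hx)

theorem part (p : Pr V U) {w : G} (hw : w ∈ V ⊔ U) (hV : w ∉ V) : ∃ x ∈ PP V, w ∈ cj x U := by
  obtain ⟨v, hv, u, hu, rfl⟩ := p.mem_sup.1 hw
  have h1 : u ≠ 1 := by rintro rfl; exact hV (by simpa using hv)
  obtain ⟨x, hx, e⟩ := p.move' hu h1 hv
  exact ⟨x, hx, e ▸ conj_mem_cj hu⟩

theorem of_meet (p : Pr V U) {B : Subgroup G} (hB : Cj V B) (hne : B ≠ V) {w : G} (h1 : w ≠ 1)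
    (hw : w ∈ V ⊔ U) (hwB : w ∈ B) : ∃ x ∈ PP V, B = cj x U := by
  obtain ⟨x, hx, e⟩ := p.part hw fun hV => hne (p.h.eq_of_mem hB (Cj.refl V) h1 hwB hV)
  exact ⟨x, hx, p.h.eq_of_mem hB (p.c.conj x) h1 hwB e⟩

theorem center0 (p : Pr V U) {z : G} (hz : z ∈ PP V) (hc : z ∈ 𝐂⟮PP V ⊓ 𝐂⟮U⟯⟯) :
    z ∈ V ⊔ U := by
  obtain ⟨U', p', hn⟩ := p.exists_nc
  obtain ⟨u, hu, e⟩ := p'.decomp p (fun h => hn (le_cent_comm h)) hz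
  have h0 : u ∈ 𝐂⟮PP V ⊓ 𝐂⟮U⟯⟯ := le_cent_comm (H := PP V ⊓ 𝐂⟮U⟯) inf_le_right hu
  have h1 : u⁻¹ * z ∈ 𝐂⟮PP V ⊓ 𝐂⟮U⟯⟯ := Subgroup.mul_mem _ (Subgroup.inv_mem _ h0) hc
  have h2 : u⁻¹ * z ∈ V := p.h.center_le ⟨(PP V).mul_mem ((PP V).inv_mem (p.le hu)) hz, fun x hx => by
    obtain ⟨y, hy, e'⟩ := p.decomp p' hn hx
    have t1 := e y hy
    have t0 : y⁻¹ * x ∈ PP V ⊓ 𝐂⟮U⟯ := ⟨(PP V).mul_mem ((PP V).inv_mem (p'.le hy)) hx, e'⟩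
    have t2 := h1 _ t0
    calc x * (u⁻¹ * z) = y * (y⁻¹ * x * (u⁻¹ * z)) := by group
      _ = y * (u⁻¹ * z) * (y⁻¹ * x) := by rw [t2]; group
      _ = u⁻¹ * z * x := by rw [t1]; group⟩
  have := mul_mem (mem_sup_right (S := V) hu) (mem_sup_left h2)
  rwa [mul_inv_cancel_left] at this

theorem V_le_of_cj (p : Pr V U) {x : G} (hx : x ∈ PP V) (hne : cj x U ≠ U) {K : Subgroup G}
    (h1 : U ≤ K) (h2 : cj x U ≤ K) : V ≤ K := fun v hv => by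
  obtain ⟨u, hu, e⟩ := p.surj hx (fun hc => hne (cj_eq_of_mem_normalizer (cent_le_norm U hc))) v hv
  exact e ▸ mul_mem (h2 (conj_mem_cj hu)) (inv_mem (h1 hu))

/-- a conjugate normalized by `P₀` and normalizing `V` meets `VU` -/
theorem meet (p : Pr V U) {B : Subgroup G} (hB : Cj V B) (hne : B ≠ V) (h1 : B ≤ 𝐍⟮V⟯)
    (h2 : B ≤ 𝐂⟮U⟯) (h3 : PP V ⊓ 𝐂⟮U⟯ ≤ 𝐍⟮B⟯) : ∃ w ∈ B, w ≠ 1 ∧ w ∈ V ⊔ U := by
  by_contra hc
  push Not at hc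
  have hBV : B ≤ 𝐂⟮V⟯ := p.h.le_cent_of_le_norm hB hne h1
  have cm1 : ∀ {a b : G}, a * b * a⁻¹ * b⁻¹ = 1 → a * b = b * a := fun {a b} e => by
    calc a * b = (a * b * a⁻¹ * b⁻¹) * (b * a) := by group
      _ = b * a := by rw [e, one_mul]
  have hB1 : ∀ b ∈ B, ∀ y ∈ PP V ⊓ 𝐂⟮U⟯, y * b * y⁻¹ * b⁻¹ ∈ B := fun b hb y hy =>
    mul_mem (conj_mem_of_mem_normalizer (h3 hy) hb) (inv_mem hb)
  have hB0 : ∀ b ∈ B, b ∈ PP V → b = 1 := fun b hb hbP => by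
    by_contra hb1
    exact hc b hb hb1 (p.center0 hbP fun y hy =>
      cm1 (p.h.eq_one hB (Cj.refl V) hne (hB1 b hb y hy) (p.h.cm hy.1 hbP)))
  have hBP : B ≤ 𝐂⟮PP V ⊓ 𝐂⟮U⟯⟯ := fun b hb y hy => cm1 (hB0 _ (hB1 b hb y hy) (by
    have := (PP V).mul_mem hy.1
      (conj_mem_of_mem_normalizer (norm_PP V (h1 hb)) ((PP V).inv_mem hy.1))
    convert this using 1
    group))
  obtain ⟨U', p', hn⟩ := p.exists_nc
  obtain ⟨b, hb, hb1⟩ : ∃ b ∈ B, b ≠ 1 := by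
    obtain ⟨u, hu, hu1⟩ := p.exists_ne_one
    obtain ⟨g, rfl⟩ := p.c.symm.trans hB
    exact ⟨_, conj_mem_cj hu, fun e => hu1 (by simpa using e)⟩
  have hV0 : V ≤ PP V ⊓ 𝐂⟮U⟯ := le_inf p.h.le_PP p.le_cent'
  have key : ∀ y ∈ U', y⁻¹ * (b * y * b⁻¹) ∈ V := fun y hy => by
    by_cases hy1 : y = 1
    · subst hy1; simp
    have t1 : b * y * b⁻¹ ∈ PP V := conj_mem_of_mem_normalizer (norm_PP V (h1 hb)) (p'.le hy)
    have t2 : y⁻¹ * (b * y * b⁻¹) ∈ V ⊔ U :=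
      p.center0 (mul_mem (inv_mem (p'.le hy)) t1) fun z hz => by
        have s1 : y * z * y⁻¹ ∈ PP V ⊓ 𝐂⟮U⟯ := by
          have := mul_mem (hV0 (p.h.cm (p'.le hy) hz.1)) hz
          rwa [inv_mul_cancel_right] at this
        have s2 := hBP hb _ s1
        have s3 := hBP hb _ hz
        calc z * (y⁻¹ * (b * y * b⁻¹)) = y⁻¹ * (y * z * y⁻¹ * b) * y * b⁻¹ := by group
          _ = y⁻¹ * b * y * (b⁻¹ * (b * z) * b⁻¹) := by rw [s2]; group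
          _ = y⁻¹ * (b * y * b⁻¹) * z := by rw [← s3]; group
    obtain ⟨v, hv, u, hu, e⟩ := p.mem_sup.1 t2
    have s1 : y * y = 1 := p'.hU.mul_self hy
    have s2 : v * u * (v * u) = 1 := by rw [← sq]; exact p.ea.2 _ (e ▸ t2)
    have s3 : y * (v * u) * (y * (v * u)) = 1 := by
      rw [e]
      calc y * (y⁻¹ * (b * y * b⁻¹)) * (y * (y⁻¹ * (b * y * b⁻¹))) = b * (y * y) * b⁻¹ := by group
        _ = 1 := by rw [s1]; group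
    have s4 : y * (v * u) * y⁻¹ = v * u := by
      calc y * (v * u) * y⁻¹ = y * (v * u) * (y * (v * u)) * (v * u)⁻¹ * (y * y)⁻¹ := by group
        _ = (v * u)⁻¹ := by rw [s3, s1]; group
        _ = v * u := inv_eq_of_mul_eq_one_right s2
    have s5 : y * v * y⁻¹ = v := conj_eq_of_cent' (p'.le_cent hy) hv
    have s6 : y * u * y⁻¹ = u := by
      calc y * u * y⁻¹ = (y * v * y⁻¹)⁻¹ * (y * (v * u) * y⁻¹) := by group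
        _ = u := by rw [s4, s5]; group
    by_cases hu1 : u = 1
    · rw [← e, hu1, mul_one]; exact hv
    · exact absurd (p.cent_of_comm (p'.le hy) hu hu1 s6)
        (p'.not_cent p (fun h => hn (le_cent_comm h)) hy hy1)
  refine hb1 (hB0 b hb (p.h.stab_le ⟨hBV hb, fun x hx => ?_⟩))
  obtain ⟨y, hy, e⟩ := p.decomp p' hn hx
  have t0 : y⁻¹ * x ∈ PP V ⊓ 𝐂⟮U⟯ := ⟨(PP V).mul_mem ((PP V).inv_mem (p'.le hy)) hx, e⟩
  have t1 := hBP hb _ t0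
  have t2 := conj_mem_of_mem_normalizer (PP_le V (p'.le hy)) (key y hy)
  convert t2 using 1
  calc b * x * b⁻¹ * x⁻¹ = b * y * b⁻¹ * (b * (y⁻¹ * x)) * b⁻¹ * x⁻¹ := by group
    _ = y * (y⁻¹ * (b * y * b⁻¹)) * y⁻¹ := by rw [← t1]; group

/-- symmetry -/
theorem le_QQ (p : Pr V U) : V ≤ QQ U := by
  have hn : 𝐂⟮U⟯ ≤ 𝐍⟮PP U⟯ := (cent_le_norm U).trans (norm_PP U)
  by_cases hP : PP U ≤ 𝐍⟮V⟯
  · have h1 : ∀ v ∈ V, v ∈ PP U → v = 1 := fun v hv hv' =>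
      p.eq_one (p.hU.center_le ⟨hv', fun y hy => by
        have := p.eq_one (p.hU.cm hy hv')
          (V.mul_mem (conj_mem_of_mem_normalizer (hP hy) hv) (V.inv_mem hv))
        calc y * v = (y * v * y⁻¹ * v⁻¹) * (v * y) := by group
          _ = v * y := by rw [this, one_mul]⟩) hv
    refine fun v hv => PP_le_QQ U (p.hU.stab_le ⟨p.le_cent' hv, fun y hy => ?_⟩)
    rw [h1 _ _ ((PP U).mul_mem (conj_mem_of_mem_normalizer (hn (p.le_cent' hv)) hy)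
      ((PP U).inv_mem hy))]
    · exact one_mem _
    · have := V.mul_mem hv (conj_mem_of_mem_normalizer (hP hy) (V.inv_mem hv))
      convert this using 1
      group
  have hS : IsPGroup 2 (PP V ⊓ 𝐂⟮U⟯ ⊔ PP U : Subgroup G) :=
    isPGroup_sup ((pg_PP V).to_le inf_le_left) (pg_PP U) (inf_le_right.trans hn)
  have hTV : PP V ⊓ 𝐂⟮U⟯ ⊔ PP U ⊓ 𝐍⟮V⟯ ≤ 𝐍⟮V⟯ :=
    _root_.sup_le (inf_le_left.trans (PP_le V)) inf_le_right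
  have hTU : PP V ⊓ 𝐂⟮U⟯ ⊔ PP U ⊓ 𝐍⟮V⟯ ≤ 𝐂⟮U⟯ :=
    _root_.sup_le inf_le_right (inf_le_left.trans (PP_le_cent U))
  obtain ⟨s, hs, hsn, hsT⟩ := exists_mem_normalizer_of_lt hS
    (Q := PP V ⊓ 𝐂⟮U⟯ ⊔ PP U ⊓ 𝐍⟮V⟯) (lt_of_le_of_ne (sup_le_sup_left inf_le_left _)
      fun e => hP (le_sup_right.trans (e.ge.trans hTV)))
  obtain ⟨a, ha, x, hx, rfl⟩ := (mem_sup_iff_of_le_normalizer (inf_le_right.trans hn)).1 hs
  have hxn : x ∈ 𝐍⟮PP V ⊓ 𝐂⟮U⟯ ⊔ PP U ⊓ 𝐍⟮V⟯⟯ := by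
    have := Subgroup.mul_mem _ (Subgroup.inv_mem _ (le_normalizer (mem_sup_left ha))) hsn
    rwa [inv_mul_cancel_left] at this
  have hxV : x ∉ 𝐍⟮V⟯ := fun h => hsT (mul_mem (mem_sup_left ha) (mem_sup_right ⟨hx, h⟩))
  have hB : cj x V ≤ PP V ⊓ 𝐂⟮U⟯ ⊔ PP U ⊓ 𝐍⟮V⟯ :=
    cj_le_of_mem_normalizer hxn (le_sup_of_le_left (le_inf p.h.le_PP p.le_cent'))
  have hne : cj x V ≠ V := fun e => hxV (cj_eq_self_iff.1 e)
  obtain ⟨w, hw, hw1, hwW⟩ := p.meet ⟨x, rfl⟩ hne (hB.trans hTV) (hB.trans hTU) (by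
    rw [← cj_normalizer]
    exact le_sup_left.trans ((cj_eq_of_mem_normalizer hxn).ge.trans (cj_mono x hTV)))
  obtain ⟨y, hy, e⟩ := p.of_meet ⟨x, rfl⟩ hne hw1 hwW hw
  have hxU : cj x U = U := cj_eq_of_mem_normalizer (PP_le U hx)
  have e1 : cj y⁻¹ (cj x V) = U := by rw [e, cj_inv_cj]
  refine p.V_le_of_cj (inv_mem hy) (fun e' => p.ne ?_) p.hU.le_QQ ?_
  · rw [← cj_inj (g := x), hxU, e]
    exact (cj_eq_iff.1 e').trans (by rw [inv_inv])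
  · have := cj_mono y⁻¹ (cj_mono x (p.le.trans (PP_le_QQ V)))
    rwa [hxU, cj_QQ, cj_QQ, e1] at this

theorem symm (p : Pr V U) : Pr U V where
  h := p.hU
  c := p.c.symm
  ne := p.ne.symm
  le := le_inf p.le_QQ p.le_cent'

end Pr

end Cfsg.Agent.TIV
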